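import Cfsg.Prelude.Def_SporadicCombinatorics

/-! The length-12 ternary code through an explicit systematic basis. -/
set_option autoImplicit false
set_option linter.all false
set_option maxRecDepth 10000

namespace CfsgLib.Ternary

open Cfsg

/-- position number of an array point -/
def posIdx (p : ArrayPt) : ℕ := 3 * p.1.val + p.2.val

/-- rows of the systematic generator matrix; the information positions are 0,1,2,3,4,6 -/
def rowList : List (List (ZMod 3)) :=
  [[1, 0, 0, 0, 0, 1, 0, 0, 1, 1, 1, 2], [0, 1, 0, 0, 0, 1, 0, 2, 2, 2, 0, 2],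
   [0, 0, 1, 0, 0, 1, 0, 1, 0, 2, 1, 1], [0, 0, 0, 1, 0, 2, 0, 2, 1, 2, 1, 0],
   [0, 0, 0, 0, 1, 2, 0, 1, 2, 0, 1, 2], [0, 0, 0, 0, 0, 0, 1, 1, 1, 2, 2, 2]]

/-- the basis words -/
def row (j : Fin 6) (p : ArrayPt) : ZMod 3 := (rowList.getD j.val []).getD (posIdx p) 0

/-- the information position of a basis word -/
def info : Fin 6 → ArrayPt := ![(0, 0), (0, 1), (0, 2), (1, 0), (1, 1), (2, 0)]

/-- the word with given information part -/
def enc (a : Fin 6 → ZMod 3) : ArrayPt → ZMod 3 := fun p => ∑ j, a j * row j p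

/-- a decidable form of membership -/
def Chk (x : ArrayPt → ZMod 3) : Prop :=
  ∃ s : ZMod 3, (∀ i : Fin 4, ∑ r : ZMod 3, x (i, r) = -s) ∧ ∀ a b : ZMod 3,
    ∑ i : Fin 4, x (i, (a • (![0, 1, 1, 1] : Fin 4 → ZMod 3) + b • (![1, 0, 1, 2] : Fin 4 → ZMod 3) : Fin 4 → ZMod 3) i) = s

instance (x : ArrayPt → ZMod 3) : Decidable (Chk x) := by unfold Chk; infer_instance

theorem mem_iff_chk {x : ArrayPt → ZMod 3} : x ∈ ternaryGolayCode ↔ Chk x := by
  constructor
  · rintro ⟨s, h1, h2⟩
    exact ⟨s, h1, fun a b => h2 _ (Submodule.mem_span_pair.2 ⟨a, b, rfl⟩)⟩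
  · rintro ⟨s, h1, h2⟩
    refine ⟨s, h1, fun t ht => ?_⟩
    obtain ⟨a, b, rfl⟩ := Submodule.mem_span_pair.1 ht
    exact h2 a b

theorem chk_row : ∀ j, Chk (row j) := by decide +kernel

theorem row_info : ∀ j k, row j (info k) = if j = k then 1 else 0 := by decide +kernel

/-- a word on the six check positions, zero on the information positions -/
def chkWord (v : Fin 6 → ZMod 3) : ArrayPt → ZMod 3 := fun p =>
  [0, 0, 0, 0, 0, v 0, 0, v 1, v 2, v 3, v 4, v 5].getD (posIdx p) 0

theorem chk_ker : ∀ v : Fin 6 → ZMod 3, Chk (chkWord v) → v = 0 := by decide +kernel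

theorem enc_mem (a : Fin 6 → ZMod 3) : enc a ∈ ternaryGolayCode := by
  have e : enc a = ∑ j, a j • row j := by
    funext p
    simp [enc, Finset.sum_apply]
  rw [e]
  exact Submodule.sum_mem _ fun j _ => Submodule.smul_mem _ _ (mem_iff_chk.2 (chk_row j))

theorem enc_info (a : Fin 6 → ZMod 3) (k : Fin 6) : enc a (info k) = a k := by
  simp [enc, row_info]

theorem enc_injective : Function.Injective enc := fun a b h => funext fun k => by
  rw [← enc_info a k, h, enc_info]

theorem eq_enc {x : ArrayPt → ZMod 3} (hx : x ∈ ternaryGolayCode) :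
    x = enc (fun k => x (info k)) := by
  obtain ⟨d, hd⟩ : ∃ d, d = x - enc (fun k => x (info k)) := ⟨_, rfl⟩
  have hdC : d ∈ ternaryGolayCode := hd ▸ sub_mem hx (enc_mem _)
  have hd0 : ∀ k, d (info k) = 0 := fun k => by rw [hd]; simp [enc_info]
  have hdw : d = chkWord ![d (1, 2), d (2, 1), d (2, 2), d (3, 0), d (3, 1), d (3, 2)] := by
    funext ⟨i, r⟩
    have h0 := hd0 0; have h1 := hd0 1; have h2 := hd0 2
    have h3 := hd0 3; have h4 := hd0 4; have h5 := hd0 5
    fin_cases i <;> fin_cases r <;> first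
      | exact h0 | exact h1 | exact h2 | exact h3 | exact h4 | exact h5 | rfl
  have hv := chk_ker _ (mem_iff_chk.1 (hdw ▸ hdC))
  rw [hv] at hdw
  have : d = 0 := by
    rw [hdw]
    funext p
    revert p
    decide +kernel
  rw [hd, sub_eq_zero] at this
  exact this

theorem mem_iff {x : ArrayPt → ZMod 3} : x ∈ ternaryGolayCode ↔ ∃ a, enc a = x :=
  ⟨fun h => ⟨_, (eq_enc h).symm⟩, fun ⟨a, h⟩ => h ▸ enc_mem a⟩

theorem coe_eq : (ternaryGolayCode : Set (ArrayPt → ZMod 3)) = Set.range enc :=
  Set.ext fun _ => mem_iff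

theorem card_code : Nat.card ternaryGolayCode = 729 := by
  have := Nat.card_range_of_injective enc_injective
  rw [← coe_eq] at this
  rw [show Nat.card ternaryGolayCode = Nat.card (Fin 6 → ZMod 3) from this, Nat.card_eq_fintype_card]
  decide +kernel

/-- weight of a word -/
def wt (x : ArrayPt → ZMod 3) : ℕ := (ternarySupport x).card

theorem wt_enc : ∀ a, a ≠ 0 → wt (enc a) = 6 ∨ wt (enc a) = 9 ∨ wt (enc a) = 12 := by
  decide +kernel

theorem wt_counts : (Finset.univ.filter fun a => wt (enc a) = 6).card = 264 ∧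
    (Finset.univ.filter fun a => wt (enc a) = 9).card = 440 ∧
    (Finset.univ.filter fun a => wt (enc a) = 12).card = 24 := by
  decide +kernel

theorem enc_zero : enc 0 = 0 := by funext p; simp [enc]

theorem wt_cases {x : ArrayPt → ZMod 3} (hx : x ∈ ternaryGolayCode) (h : x ≠ 0) :
    wt x = 6 ∨ wt x = 9 ∨ wt x = 12 := by
  obtain ⟨a, rfl⟩ := mem_iff.1 hx
  exact wt_enc a fun h0 => h (by rw [h0, enc_zero])

theorem ncard_wt (n : ℕ) :
    {x : ArrayPt → ZMod 3 | x ∈ ternaryGolayCode ∧ (ternarySupport x).card = n}.ncard =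
      (Finset.univ.filter fun a => wt (enc a) = n).card := by
  rw [← Set.ncard_coe_finset, ← Set.ncard_image_of_injective _ enc_injective]
  congr 1
  ext x
  simp only [Set.mem_setOf_eq, Set.mem_image, Finset.coe_filter, Finset.mem_univ, true_and]
  constructor
  · rintro ⟨hx, hn⟩
    obtain ⟨a, rfl⟩ := mem_iff.1 hx
    exact ⟨a, hn, rfl⟩
  · rintro ⟨a, ha, rfl⟩
    exact ⟨enc_mem a, ha⟩

theorem row_orth : ∀ j k, ∑ p, row j p * row k p = 0 := by decide +kernel

theorem orth {x y : ArrayPt → ZMod 3} (hx : x ∈ ternaryGolayCode) (hy : y ∈ ternaryGolayCode) :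
    ∑ p, x p * y p = 0 := by
  obtain ⟨a, rfl⟩ := mem_iff.1 hx
  obtain ⟨b, rfl⟩ := mem_iff.1 hy
  simp only [enc, Finset.sum_mul_sum]
  rw [Finset.sum_comm]
  refine Finset.sum_eq_zero fun j _ => ?_
  rw [Finset.sum_comm]
  refine Finset.sum_eq_zero fun k _ => ?_
  have : ∀ p, a j * row j p * (b k * row k p) = a j * b k * (row j p * row k p) := fun p => by ring
  simp only [this, ← Finset.mul_sum, row_orth, mul_zero]

theorem cover : ∀ p q, ∃ a, wt (enc a) = 6 ∧ enc a p ≠ 0 ∧ enc a q ≠ 0 := by decide +kernel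

theorem zmod3_mul_self {a : ZMod 3} (h : a ≠ 0) : a * a = 1 := by revert a h; decide

/-- two weight-6 words with five common support points are proportional -/
theorem same_support {x y : ArrayPt → ZMod 3} (hx : x ∈ ternaryGolayCode)
    (hy : y ∈ ternaryGolayCode) (wx : wt x = 6) (wy : wt y = 6)
    (h5 : 5 ≤ (ternarySupport x ∩ ternarySupport y).card) : x = y ∨ x = -y := by
  classical
  obtain ⟨I, hI⟩ : ∃ I, I = ternarySupport x ∩ ternarySupport y := ⟨_, rfl⟩
  rw [← hI] at h5
  have hmem : ∀ p ∈ I, x p ≠ 0 ∧ y p ≠ 0 := fun p hp => by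
    simpa [hI, ternarySupport] using hp
  have hsplit := Finset.card_filter_add_card_filter_not (s := I) (fun p => x p = y p)
  have key : ∀ c : ZMod 3, 3 ≤ (I.filter fun p => x p = c * y p).card → x = c • y := by
    intro c h3
    by_contra hne
    have hd : x - c • y ∈ ternaryGolayCode := sub_mem hx (Submodule.smul_mem _ c hy)
    have hne' : x - c • y ≠ 0 := sub_ne_zero.2 hne
    have hsub : ternarySupport (x - c • y) ⊆
        (ternarySupport x ∪ ternarySupport y) \ I.filter (fun p => x p = c * y p) := by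
      intro p hp
      simp only [ternarySupport, Finset.mem_filter, Finset.mem_univ, true_and, Pi.sub_apply,
        Pi.smul_apply, smul_eq_mul, Finset.mem_sdiff, Finset.mem_union] at hp ⊢
      refine ⟨?_, fun h => hp (sub_eq_zero.2 h.2)⟩
      by_contra hh
      simp only [not_or, not_not] at hh
      exact hp (by rw [hh.1, hh.2, mul_zero, sub_zero])
    have hu := Finset.card_union_add_card_inter (ternarySupport x) (ternarySupport y)
    have hle := Finset.card_le_card hsub
    have hIu : I ⊆ ternarySupport x ∪ ternarySupport y := fun p hp => by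
      rw [hI] at hp; exact Finset.mem_union_left _ (Finset.mem_inter.1 hp).1
    rw [Finset.card_sdiff_of_subset ((Finset.filter_subset _ _).trans hIu)] at hle
    have := wt_cases hd hne'
    simp only [wt] at this wx wy
    rw [← hI] at hu
    omega
  by_cases h : 3 ≤ (I.filter fun p => x p = y p).card
  · left
    simpa using key 1 (by simpa using h)
  · right
    have e : (I.filter fun p => ¬ x p = y p) = I.filter (fun p => x p = -1 * y p) := by
      refine Finset.filter_congr fun p hp => ?_
      obtain ⟨h1, h2⟩ := hmem p hp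
      revert h1 h2
      generalize x p = a
      generalize y p = b
      revert a b
      decide
    rw [e] at hsplit
    simpa using key (-1) (by omega)

/-- the supports of the weight-6 words -/
def hexads : Set (Finset ArrayPt) :=
  {h | ∃ x ∈ ternaryGolayCode, ternarySupport x = h ∧ h.card = 6}

theorem ncard_hexads : hexads.ncard = 132 := by
  classical
  obtain ⟨W, hW⟩ : ∃ W : Finset (Fin 6 → ZMod 3), W = Finset.univ.filter fun a => wt (enc a) = 6 :=
    ⟨_, rfl⟩
  have himg : hexads = ↑(W.image fun a => ternarySupport (enc a)) := by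
    ext h
    simp only [hexads, hW, Finset.coe_image, Set.mem_image, Finset.coe_filter, Finset.mem_univ,
      true_and, Set.mem_setOf_eq]
    constructor
    · rintro ⟨x, hx, rfl, h6⟩
      obtain ⟨a, rfl⟩ := mem_iff.1 hx
      exact ⟨a, h6, rfl⟩
    · rintro ⟨a, ha, rfl⟩
      exact ⟨_, enc_mem a, rfl, ha⟩
  rw [himg, Set.ncard_coe_finset]
  have hfib : ∀ s ∈ W.image (fun a => ternarySupport (enc a)),
      (W.filter fun a => ternarySupport (enc a) = s).card = 2 := by
    intro s hs
    obtain ⟨a, ha, rfl⟩ := Finset.mem_image.1 hs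
    have ha6 : wt (enc a) = 6 := by simpa [hW] using ha
    have hneg : enc (-a) = -enc a := by funext p; simp [enc]
    have hsn : ternarySupport (-enc a) = ternarySupport (enc a) := by
      ext p; simp [ternarySupport]
    have e : (W.filter fun b => ternarySupport (enc b) = ternarySupport (enc a)) = {a, -a} := by
      ext b
      simp only [Finset.mem_filter, Finset.mem_insert, Finset.mem_singleton]
      constructor
      · rintro ⟨hb, hbs⟩
        have hb6 : wt (enc b) = 6 := by simpa [hW] using hb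
        rcases same_support (enc_mem b) (enc_mem a) hb6 ha6
          (by rw [hbs, Finset.inter_self]; exact le_of_le_of_eq (by norm_num : 5 ≤ 6) ha6.symm) with h | h
        · exact Or.inl (enc_injective h)
        · exact Or.inr (enc_injective (by rw [hneg, h]))
      · rintro (rfl | rfl)
        · exact ⟨ha, rfl⟩
        · refine ⟨?_, by rw [hneg, hsn]⟩
          rw [hW, Finset.mem_filter]
          refine ⟨Finset.mem_univ _, ?_⟩
          rw [wt, hneg, hsn]
          exact ha6
    rw [e, Finset.card_pair]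
    intro h
    have h0 : a = 0 := by
      funext k
      have := congrFun h k
      revert this
      rw [Pi.neg_apply, Pi.zero_apply]
      generalize a k = t
      revert t
      decide
    rw [h0, enc_zero] at ha6
    simp [wt, ternarySupport] at ha6
  have := Finset.card_eq_sum_card_image (fun a => ternarySupport (enc a)) W
  rw [Finset.sum_congr rfl hfib, Finset.sum_const, smul_eq_mul, hW, wt_counts.1] at this
  rw [← hW] at this
  omega

theorem steiner : IsSteinerSystem 5 6 hexads := by
  classical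
  have huniq : ∀ b ∈ hexads, ∀ b' ∈ hexads, 5 ≤ (b ∩ b').card → b = b' := by
    rintro _ ⟨x, hx, rfl, h6⟩ _ ⟨y, hy, rfl, h6'⟩ h5
    rcases same_support hx hy h6 h6' h5 with h | h
    · rw [h]
    · rw [h]; ext p; simp [ternarySupport]
  refine ⟨fun b ⟨x, _, _, h⟩ => h, fun s hs => ?_⟩
  have hfin : hexads.Finite := Set.toFinite _
  obtain ⟨B, hB⟩ : ∃ B, B = hfin.toFinset.biUnion fun b => b.powersetCard 5 := ⟨_, rfl⟩
  have hBcard : B.card = 792 := by
    rw [hB, Finset.card_biUnion]
    · rw [Finset.sum_congr rfl (fun b hb => ?_), Finset.sum_const,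
        ← Set.ncard_eq_toFinset_card _ hfin, ncard_hexads, smul_eq_mul, show 132 * 6 = 792 from rfl]
      rw [Set.Finite.mem_toFinset] at hb
      obtain ⟨x, -, -, h⟩ := hb
      rw [Finset.card_powersetCard, h]
      rfl
    · intro b hb b' hb' hne
      rw [Function.onFun, Finset.disjoint_left]
      intro t ht ht'
      rw [Finset.mem_coe, Set.Finite.mem_toFinset] at hb hb'
      rw [Finset.mem_powersetCard] at ht ht'
      exact hne (huniq b hb b' hb' (ht.2 ▸ Finset.card_le_card (Finset.subset_inter ht.1 ht'.1)))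
  have hBeq : B = (Finset.univ : Finset ArrayPt).powersetCard 5 := by
    refine Finset.eq_of_subset_of_card_le (fun t ht => ?_) ?_
    · rw [hB, Finset.mem_biUnion] at ht
      obtain ⟨b, -, ht⟩ := ht
      rw [Finset.mem_powersetCard] at ht ⊢
      exact ⟨Finset.subset_univ _, ht.2⟩
    · rw [hBcard, Finset.card_powersetCard, Finset.card_univ]
      decide
  have : s ∈ B := by rw [hBeq, Finset.mem_powersetCard]; exact ⟨Finset.subset_univ _, hs⟩
  rw [hB, Finset.mem_biUnion] at this
  obtain ⟨b, hb, hbs⟩ := this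
  rw [Set.Finite.mem_toFinset] at hb
  rw [Finset.mem_powersetCard] at hbs
  exact ⟨b, ⟨hb, hbs.1⟩, fun b' ⟨hb', hs'⟩ =>
    huniq b' hb' b hb (hs ▸ Finset.card_le_card (Finset.subset_inter hs' hbs.1))⟩

theorem signs {c : ArrayPt → (ZMod 3)ˣ}
    (h : ∀ x ∈ ternaryGolayCode, monomialMap 1 c x ∈ ternaryGolayCode) :
    (∀ p, c p = 1) ∨ ∀ p, c p = -1 := by
  classical
  have hu : ∀ u : (ZMod 3)ˣ, u = 1 ∨ u = -1 := by decide
  have hconst : ∀ p q, c p = c q := by
    intro p q
    obtain ⟨a, ha6, hp, hq⟩ := cover p q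
    obtain ⟨x, hxd⟩ : ∃ x, x = enc a := ⟨_, rfl⟩
    rw [← hxd] at ha6 hp hq
    have hy := h x (hxd ▸ enc_mem a)
    obtain ⟨y, hyd⟩ : ∃ y, y = monomialMap 1 c x := ⟨_, rfl⟩
    rw [← hyd] at hy
    have hyp : ∀ r, y r = (c r : ZMod 3) * x r := fun r => by rw [hyd]; rfl
    have hsupp : ternarySupport y = ternarySupport x := by
      ext r
      simp [ternarySupport, hyp]
    have e := same_support hy (hxd ▸ enc_mem a) (by rw [wt, hsupp]; exact ha6) ha6
      (by rw [hsupp, Finset.inter_self]; exact le_of_le_of_eq (by norm_num : 5 ≤ 6) ha6.symm)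
    rcases e with e | e
    · have h1 := congrFun e p
      have h2 := congrFun e q
      rw [hyp] at h1 h2
      exact Units.ext ((mul_eq_right₀ hp).1 h1 |>.trans ((mul_eq_right₀ hq).1 h2).symm)
    · have h1 := congrFun e p
      have h2 := congrFun e q
      rw [hyp, Pi.neg_apply, ← neg_one_mul] at h1 h2
      exact Units.ext ((mul_right_cancel₀ hp h1).trans (mul_right_cancel₀ hq h2).symm)
  rcases hu (c (0, 0)) with h0 | h0
  · exact Or.inl fun p => (hconst p _).trans h0
  · exact Or.inr fun p => (hconst p _).trans h0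

end CfsgLib.Ternary
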