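import Cfsg.Prelude.Def_SporadicCombinatorics

/-! Weights of the hexacode, computed in a concrete copy of the field with four elements. -/
set_option autoImplicit false
set_option linter.all false
set_option maxRecDepth 10000

namespace CfsgLib.Hexacode

open Cfsg

/-- pairs `(a, b)` stand for `a + b ω` -/
abbrev K : Type := ZMod 2 × ZMod 2

/-- multiplication of pairs -/
def kmul (x y : K) : K := (x.1 * y.1 + x.2 * y.2, x.1 * y.2 + x.2 * y.1 + x.2 * y.2)

/-- the three generators -/
def gen : Fin 3 → Fin 6 → K :=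
  ![![(0, 1), (1, 1), (1, 1), (0, 1), (1, 1), (0, 1)],
    ![(1, 1), (0, 1), (0, 1), (1, 1), (1, 1), (0, 1)],
    ![(1, 1), (0, 1), (1, 1), (0, 1), (0, 1), (1, 1)]]

/-- the word with coefficients `a` -/
def kword (a : Fin 3 → K) (i : Fin 6) : K :=
  kmul (a 0) (gen 0 i) + kmul (a 1) (gen 1 i) + kmul (a 2) (gen 2 i)

/-- weight -/
def kwt (a : Fin 3 → K) : ℕ := (Finset.univ.filter fun i => kword a i ≠ 0).card

theorem kwt_cases : ∀ a, (a = 0 ∧ kwt a = 0) ∨ (a ≠ 0 ∧ (kwt a = 4 ∨ kwt a = 6)) := by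
  decide +kernel

theorem kword_sub : ∀ a b : Fin 3 → K, ∀ i, kword (a - b) i = kword a i - kword b i := by
  intro a b i
  simp only [kword, kmul, Pi.sub_apply, Prod.fst_sub, Prod.snd_sub, Prod.mk_add_mk, Prod.mk_sub_mk]
  ext <;> simp <;> ring

theorem kwt_counts : (Finset.univ.filter fun a => kwt a = 4).card = 45 ∧
    (Finset.univ.filter fun a => kwt a = 6).card = 18 ∧ Fintype.card (Fin 3 → K) = 64 := by
  decide +kernel

variable {F : Type*} [Field F] [Fintype F] [DecidableEq F]

theorem two_eq_zero (hF : Fintype.card F = 4) : (2 : F) = 0 := by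
  have h := FiniteField.cast_card_eq_zero F
  rw [hF] at h
  have : (2 : F) * 2 = 0 := by norm_num; exact_mod_cast h
  exact mul_self_eq_zero.1 this

/-- the field map -/
def phi (ω : F) (x : K) : F := (if x.1 = 1 then 1 else 0) + if x.2 = 1 then ω else 0

/-- weight statistics of the hexacode -/
theorem main (hF : Fintype.card F = 4) (ω : F) (hω : ω ^ 2 + ω + 1 = 0) :
    Nat.card ↥(hexacode F ω) = 64 ∧
      (∀ x ∈ hexacode F ω, x ≠ 0 → (Finset.univ.filter fun i => x i ≠ 0).card = 4 ∨
        (Finset.univ.filter fun i => x i ≠ 0).card = 6) ∧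
      {x : Fin 6 → F | x ∈ hexacode F ω ∧ (Finset.univ.filter fun i => x i ≠ 0).card = 4}.ncard
        = 45 ∧
      {x : Fin 6 → F | x ∈ hexacode F ω ∧ (Finset.univ.filter fun i => x i ≠ 0).card = 6}.ncard
        = 18 := by
  have h2 := two_eq_zero hF
  have hw2 : ω ^ 2 = ω + 1 := by linear_combination hω - (ω + 1) * h2
  have hω0 : ω ≠ 0 := by rintro rfl; simp at hω
  have hω1 : ω + 1 ≠ 0 := fun h => by rw [← hw2] at h; exact hω0 (pow_eq_zero_iff two_ne_zero |>.1 h)
  have z : ∀ a : ZMod 2, a = 0 ∨ a = 1 := by decide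
  have padd : ∀ x y : K, phi ω (x + y) = phi ω x + phi ω y := by
    rintro ⟨a, b⟩ ⟨c, d⟩
    rcases z a with rfl | rfl <;> rcases z b with rfl | rfl <;> rcases z c with rfl | rfl <;>
      rcases z d with rfl | rfl <;>
      simp [phi, show (1 : ZMod 2) + 1 = 0 from rfl] <;> grind
  have pmul : ∀ x y : K, phi ω (kmul x y) = phi ω x * phi ω y := by
    rintro ⟨a, b⟩ ⟨c, d⟩
    rcases z a with rfl | rfl <;> rcases z b with rfl | rfl <;> rcases z c with rfl | rfl <;>
      rcases z d with rfl | rfl <;>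
      simp [phi, kmul, show (1 : ZMod 2) + 1 = 0 from rfl] <;> grind
  have pzero : ∀ x : K, phi ω x = 0 → x = 0 := by
    rintro ⟨a, b⟩ h
    rcases z a with rfl | rfl <;> rcases z b with rfl | rfl <;> simp [phi] at h ⊢
    · exact hω0 h
    · exact hω1 (by linear_combination h)
  have psub : ∀ x y : K, phi ω (x - y) = phi ω x - phi ω y := fun x y => by
    have := padd (x - y) y
    rw [sub_add_cancel] at this
    linear_combination -this
  have pinj : Function.Injective (phi ω) := fun x y h => by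
    rw [← sub_eq_zero]; exact pzero _ (by rw [psub, h, sub_self])
  have psurj : Function.Surjective (phi ω) := by
    refine ((Fintype.bijective_iff_injective_and_card (phi ω)).2 ⟨pinj, ?_⟩).2
    rw [hF]; rfl
  obtain ⟨E, hE⟩ : ∃ E : (Fin 3 → K) → (Fin 6 → F), E = fun a i => phi ω (kword a i) := ⟨_, rfl⟩
  have hEi : Function.Injective E := fun a b h => by
    have hz : ∀ i, kword (a - b) i = 0 := fun i => by
      rw [kword_sub, sub_eq_zero]
      exact pinj (by simpa [hE] using congrFun h i)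
    rcases kwt_cases (a - b) with ⟨h0, -⟩ | ⟨-, h0⟩
    · exact sub_eq_zero.1 h0
    · simp [kwt, hz] at h0
  have hgen : ∀ a, E a = phi ω (a 0) • ![ω, ω ^ 2, ω ^ 2, ω, ω ^ 2, ω]
      + phi ω (a 1) • ![ω ^ 2, ω, ω, ω ^ 2, ω ^ 2, ω]
      + phi ω (a 2) • ![ω ^ 2, ω, ω ^ 2, ω, ω, ω ^ 2] := fun a => by
    funext i
    simp only [hE, kword, padd, pmul, Pi.add_apply, Pi.smul_apply, smul_eq_mul]
    fin_cases i <;> simp [gen, phi, hw2] <;> first | ring1 | (left; ring1)
  have hmem : ∀ x, x ∈ hexacode F ω ↔ ∃ a, E a = x := by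
    intro x
    rw [hexacode, Submodule.mem_span_triple]
    constructor
    · rintro ⟨a, b, c, rfl⟩
      obtain ⟨a', rfl⟩ := psurj a
      obtain ⟨b', rfl⟩ := psurj b
      obtain ⟨c', rfl⟩ := psurj c
      exact ⟨![a', b', c'], by rw [hgen]; rfl⟩
    · rintro ⟨a, rfl⟩
      exact ⟨_, _, _, (hgen a).symm⟩
  have hwt : ∀ a, (Finset.univ.filter fun i => E a i ≠ 0).card = kwt a := fun a => by
    refine congrArg Finset.card (Finset.filter_congr fun i _ => not_congr ⟨fun h => pzero _ ?_,
      fun h => ?_⟩)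
    · simpa [hE] using h
    · simp [hE, h, phi]
  have hset : (hexacode F ω : Set (Fin 6 → F)) = Set.range E := Set.ext hmem
  have hcount : ∀ n : ℕ,
      {x : Fin 6 → F | x ∈ hexacode F ω ∧ (Finset.univ.filter fun i => x i ≠ 0).card = n}.ncard =
        (Finset.univ.filter fun a => kwt a = n).card := fun n => by
    rw [← Set.ncard_coe_finset, ← Set.ncard_image_of_injective _ hEi]
    congr 1
    ext x
    simp only [Set.mem_setOf_eq, Set.mem_image, Finset.coe_filter, Finset.mem_univ, true_and]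
    constructor
    · rintro ⟨hx, hn⟩
      obtain ⟨a, rfl⟩ := (hmem x).1 hx
      exact ⟨a, (hwt a).symm.trans hn, rfl⟩
    · rintro ⟨a, ha, rfl⟩
      exact ⟨(hmem _).2 ⟨a, rfl⟩, (hwt a).trans ha⟩
  refine ⟨?_, fun x hx hne => ?_, (hcount 4).trans kwt_counts.1, (hcount 6).trans kwt_counts.2.1⟩
  · have := Nat.card_range_of_injective hEi
    rw [← hset, Nat.card_eq_fintype_card (α := Fin 3 → K), kwt_counts.2.2] at this
    exact this
  · obtain ⟨a, rfl⟩ := (hmem x).1 hx
    rw [hwt]
    rcases kwt_cases a with ⟨h0, -⟩ | ⟨-, h⟩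
    · refine absurd ?_ hne
      subst h0
      funext i
      simp [hE, kword, kmul, phi]
    · exact h

end CfsgLib.Hexacode
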